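import Cfsg.Agent.SL2Char.Principal
import Cfsg.Agent.GL2Char.Basic

/-!
# The principal series, the linear characters and the Steinberg characters of `GL(2, q)`
-/

set_option autoImplicit false
set_option linter.unusedSectionVars false
set_option linter.style.haveILetI false

namespace Cfsg.Agent.GL2Char

open Cfsg
open scoped MatrixGroups ComplexConjugate

variable {F : Type*} [Field F]

local notation "G" => GL (Fin 2) F
local notation "q" => Fintype.card F
local notation "M2" => Matrix (Fin 2) (Fin 2) F

/-- The upper triangular subgroup. -/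
abbrev borel : Subgroup G := Cfsg.upperTriangularGL 2 F

/-- The function `b ↦ α (b₀₀) β (b₁₁)`. -/
noncomputable abbrev lift (α β : MulChar F ℂ) : ↥(borel (F := F)) → ℂ :=
  fun b => α (((b : G) : M2) 0 0) * β (((b : G) : M2) 1 1)

theorem mem_borel {g : G} : g ∈ borel ↔ (g : M2) 1 0 = 0 := by
  constructor
  · intro h; exact h (by decide : (0 : Fin 2) < 1)
  · intro h i j hij
    fin_cases i <;> fin_cases j <;> simp at hij
    exact h

/-- The linear character of the upper triangular subgroup. -/
noncomputable def liftHom (α β : MulChar F ℂ) : ↥(borel (F := F)) →* ℂ where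
  toFun := lift α β
  map_one' := by simp [lift]
  map_mul' a b := by
    have hb := mem_borel.1 b.2
    have ha := mem_borel.1 a.2
    simp [lift, Matrix.mul_apply, Fin.sum_univ_two, hb, ha]
    ring

theorem lift_isClassFunction (α β : MulChar F ℂ) :
    Cfsg.IsClassFunction ↥(borel (F := F)) (lift α β) := by
  intro g h
  show liftHom α β (h * g * h⁻¹) = liftHom α β g
  rw [map_mul, map_mul, mul_comm (liftHom α β h), mul_assoc, ← map_mul, mul_inv_cancel, map_one,
    mul_one]

/-- The representative of a coset other than `B`. -/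
noncomputable def rep (c : F) : G :=
  Matrix.SpecialLinearGroup.toGL (Spec.Principal.rep c)

theorem coe_rep (c : F) : ((rep c : G) : M2) = !![-c, 1; -1, 0] := rfl

theorem coe_rep_inv (c : F) : (((rep c)⁻¹ : G) : M2) = !![0, -1; 1, -c] := by
  rw [rep, ← map_inv]
  show ((((Spec.Principal.rep c)⁻¹ : SL(2, F))) : M2) = _
  rw [Matrix.SpecialLinearGroup.coe_inv, Spec.Principal.coe_rep, Matrix.adjugate_fin_two]
  simp

theorem conj_rep_entries (g : G) (c : F) :
    (((rep c)⁻¹ * g * rep c : G) : M2) 1 0 =
        (g : M2) 1 0 * c ^ 2 + ((g : M2) 1 1 - (g : M2) 0 0) * c - (g : M2) 0 1 ∧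
      (((rep c)⁻¹ * g * rep c : G) : M2) 0 0 = c * (g : M2) 1 0 + (g : M2) 1 1 ∧
      (((rep c)⁻¹ * g * rep c : G) : M2) 1 1 = (g : M2) 0 0 - c * (g : M2) 1 0 := by
  simp only [Units.val_mul, coe_rep, coe_rep_inv]
  refine ⟨?_, ?_, ?_⟩ <;>
    simp [Matrix.mul_apply, Fin.sum_univ_two, Matrix.vecMul, dotProduct] <;> ring

variable [Fintype F]

open scoped Classical in
/-- The induced character as a sum over the projective line. -/
theorem indFun_eq (α β : MulChar F ℂ) (g : G) [Fintype G] :
    Cfsg.indFun borel (lift α β) g =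
      (if (g : M2) 1 0 = 0 then α ((g : M2) 0 0) * β ((g : M2) 1 1) else 0) +
        ∑ c : F, if (g : M2) 1 0 * c ^ 2 + ((g : M2) 1 1 - (g : M2) 0 0) * c - (g : M2) 0 1 = 0
          then α (c * (g : M2) 1 0 + (g : M2) 1 1) * β ((g : M2) 0 0 - c * (g : M2) 1 0) else 0 := by
  have hext : ∀ y : G, Cfsg.extendByZero borel (lift α β) y =
      if (y : M2) 1 0 = 0 then α ((y : M2) 0 0) * β ((y : M2) 1 1) else 0 := by
    intro y
    split_ifs with h
    · rw [CharInd.extendByZero_mem _ _ (mem_borel.2 h)]
    · exact CharInd.extendByZero_notMem _ _ (mt mem_borel.1 h)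
  let rep' : Option F → G := fun o => o.elim 1 rep
  have hbij : Function.Bijective
      (fun p : Option F × ↥(borel (F := F)) => rep' p.1 * (p.2 : G)) := by
    have hinv : ∀ o o' : Option F, (rep' o)⁻¹ * rep' o' ∈ borel → o = o' := by
      intro o o' h
      rw [mem_borel] at h
      rcases o with _ | c <;> rcases o' with _ | c'
      · rfl
      · simp [rep', coe_rep] at h
      · simp [rep', coe_rep_inv, -Matrix.coe_units_inv] at h
      · simp [rep', coe_rep_inv, coe_rep, Matrix.mul_apply, Fin.sum_univ_two, Matrix.vecMul,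
          dotProduct, -Matrix.coe_units_inv] at h
        exact congrArg some (by linear_combination h)
    constructor
    · rintro ⟨o, b⟩ ⟨o', b'⟩ h
      have h1 : (rep' o)⁻¹ * rep' o' = (b : G) * (b' : G)⁻¹ := by
        rw [eq_mul_inv_iff_mul_eq, mul_assoc, inv_mul_eq_iff_eq_mul]
        exact h.symm
      obtain rfl := hinv o o' (h1 ▸ mul_mem b.2 (inv_mem b'.2))
      exact Prod.ext rfl (Subtype.ext (mul_left_cancel h))
    · intro y
      by_cases hy : (y : M2) 1 0 = 0
      · exact ⟨(none, ⟨y, mem_borel.2 hy⟩), one_mul y⟩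
      · set c := (y : M2) 0 0 / (y : M2) 1 0 with hc
        refine ⟨(some c, ⟨(rep c)⁻¹ * y, mem_borel.2 ?_⟩), mul_inv_cancel_left _ _⟩
        rw [Units.val_mul, coe_rep_inv]
        simp [Matrix.mul_apply, Fin.sum_univ_two, Matrix.vecMul, dotProduct]
        rw [hc]; field_simp; ring
  rw [CharInd.indFun_apply, ← Fintype.sum_bijective _ hbij _ _ (fun _ => rfl), Fintype.sum_prod_type]
  have hterm : ∀ (o : Option F) (b : ↥(borel (F := F))),
      Cfsg.extendByZero borel (lift α β) ((rep' o * (b : G))⁻¹ * g * (rep' o * (b : G))) =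
        Cfsg.extendByZero borel (lift α β) ((rep' o)⁻¹ * g * rep' o) := by
    intro o b
    rw [show (rep' o * (b : G))⁻¹ * g * (rep' o * (b : G)) =
      (b : G)⁻¹ * ((rep' o)⁻¹ * g * rep' o) * ((b : G)⁻¹)⁻¹ by group]
    exact CharInd.extendByZero_conj_mem borel (lift_isClassFunction α β) (inv_mem b.2) _
  simp only [hterm, Finset.sum_const, Finset.card_univ, ← Finset.smul_sum, nsmul_eq_mul]
  rw [← Nat.card_eq_fintype_card, ← Finset.mul_sum, inv_mul_cancel_left₀ CharInd.natCard_ne_zero, Fintype.sum_option]
  congr 1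
  · simp [rep', hext]
  · refine Finset.sum_congr rfl fun c _ => ?_
    show Cfsg.extendByZero borel (lift α β) ((rep c)⁻¹ * g * rep c) = _
    rw [hext, (conj_rep_entries g c).1, (conj_rep_entries g c).2.1, (conj_rep_entries g c).2.2]

/-- The principal series. -/
noncomputable def ps (α β : MulChar F ℂ) : G → ℂ :=
  letI := Fintype.ofFinite G
  Cfsg.indFun borel (lift α β)

theorem ps_eq [hG : Fintype G] (α β : MulChar F ℂ) : ps α β = Cfsg.indFun borel (lift α β) := by
  unfold ps
  rw [Subsingleton.elim (Fintype.ofFinite G) hG]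

theorem ps_isCharacter (α β : MulChar F ℂ) : IsCharacter G (ps α β) := by
  classical
  letI := Fintype.ofFinite G
  letI := Fintype.ofFinite (borel (F := F))
  exact CharInd.isCharacter_indFun _
    (Char.isCharacter_of_irr (Char.isIrrCharacter_monoidHom (liftHom α β).toHomUnits))

/-- Coordinates on the upper triangular subgroup. -/
noncomputable def coords (p : Fˣ × Fˣ × F) : ↥(borel (F := F)) :=
  ⟨Linear.triGL p.1 p.2.1 p.2.2, mem_borel.2 rfl⟩

theorem coords_bijective : Function.Bijective (coords (F := F)) := by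
  constructor
  · rintro ⟨a, d, x⟩ ⟨a', d', x'⟩ h
    have h' : ((Linear.triGL a d x : G) : M2) = (Linear.triGL a' d' x' : G) :=
      congrArg (fun m : ↥(borel (F := F)) => ((m : G) : M2)) h
    have h0 := congrFun (congrFun h' 0) 0
    have h1 := congrFun (congrFun h' 0) 1
    have h2 := congrFun (congrFun h' 1) 1
    simp at h0 h1 h2
    exact Prod.ext (Units.ext h0) (Prod.ext (Units.ext h2) h1)
  · intro m
    have h10 := mem_borel.1 m.2
    refine ⟨(Units.mk0 _ (Linear.glTwo_diag_ne_zero h10).1, Units.mk0 _ (Linear.glTwo_diag_ne_zero h10).2,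
      ((m : G) : M2) 0 1), Subtype.ext (Linear.glTwo_ext ?_ ?_ ?_ ?_)⟩ <;> simp [coords, h10]

open scoped Classical in
theorem classInner_borel [Fintype ↥(borel (F := F))] (α β : MulChar F ℂ) (f : G → ℂ) :
    Cfsg.classInner (lift α β) (fun b => f (b : G)) = (Nat.card (Fˣ × Fˣ × F) : ℂ)⁻¹ *
      ∑ a : Fˣ, ∑ d : Fˣ, α (a : F) * β (d : F) *
        conj (∑ x : F, f (Linear.triGL a d x)) := by
  classical
  unfold Cfsg.classInner
  rw [Nat.card_congr (Equiv.ofBijective _ (coords_bijective (F := F))).symm,
    ← Fintype.sum_bijective _ coords_bijective _ _ (fun _ => rfl), Fintype.sum_prod_type]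
  congr 1
  refine Finset.sum_congr rfl fun a _ => ?_
  rw [Fintype.sum_prod_type]
  refine Finset.sum_congr rfl fun d _ => ?_
  rw [map_sum, Finset.mul_sum]
  rfl

open scoped Classical in
theorem sum_ps_tri (α β : MulChar F ℂ) (a d : Fˣ) :
    ∑ x : F, ps α β (Linear.triGL a d x) =
      (q : ℂ) * (α (a : F) * β (d : F) + α (d : F) * β (a : F)) := by
  classical
  letI := Fintype.ofFinite G
  simp only [ps_eq, indFun_eq, Linear.triGL_val, Matrix.cons_val', Matrix.cons_val_zero,
    Matrix.cons_val_one, Matrix.of_apply, Matrix.empty_val', Matrix.cons_val_fin_one, if_true,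
    mul_zero, zero_mul, zero_add, sub_zero, sub_eq_zero]
  rw [Finset.sum_add_distrib, Finset.sum_comm]
  simp [mul_add]

open scoped Classical in
theorem sum_units_pair (α β α' β' : MulChar F ℂ) :
    ∑ a : Fˣ, ∑ d : Fˣ, α (a : F) * β (d : F) * conj (α' (a : F) * β' (d : F)) =
      if α = α' ∧ β = β' then (Fintype.card Fˣ : ℂ) * Fintype.card Fˣ else 0 := by
  have h : ∀ (γ γ' : MulChar F ℂ) (a : Fˣ), γ (a : F) * conj (γ' (a : F)) = (γ * γ'⁻¹) (a : F) := by
    intro γ γ' a
    rw [MulChar.mul_apply, starRingEnd_apply, MulChar.star_apply']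
  calc ∑ a : Fˣ, ∑ d : Fˣ, α (a : F) * β (d : F) * conj (α' (a : F) * β' (d : F)) =
      (∑ a : Fˣ, (α * α'⁻¹) (a : F)) * ∑ d : Fˣ, (β * β'⁻¹) (d : F) := by
        rw [Finset.sum_mul_sum]
        refine Finset.sum_congr rfl fun a _ => Finset.sum_congr rfl fun d _ => ?_
        rw [← h, ← h, map_mul]; ring
    _ = _ := by
        rw [S2432.sum_units_mulChar, S2432.sum_units_mulChar]
        simp only [mul_inv_eq_one]
        split_ifs <;> simp_all

open scoped Classical in
theorem classInner_ps [hG : Fintype G] (α β α' β' : MulChar F ℂ) :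
    classInner (ps α β) (ps α' β') =
      (if α = α' ∧ β = β' then 1 else 0) + (if α = β' ∧ β = α' then 1 else 0) := by
  letI := Fintype.ofFinite (borel (F := F))
  have hcl := CharInd.indFun_isClassFunction (H := borel (F := F)) (lift α' β')
  rw [ps_eq α β, ps_eq α' β', CharInd.classInner_indFun_left _ _ hcl, ← ps_eq α' β',
    classInner_borel α β (ps α' β')]
  simp only [sum_ps_tri, map_mul, map_add, map_natCast]
  have h1 := sum_units_pair α β α' β'
  have h2 := sum_units_pair α β β' α'
  simp only [map_mul] at h1 h2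
  simp only [mul_left_comm _ (q : ℂ), mul_add, Finset.sum_add_distrib, ← Finset.mul_sum]
  rw [h1, Finset.sum_congr rfl fun a _ => Finset.sum_congr rfl fun d _ => by
    rw [mul_comm (conj (α' (d : F))) (conj (β' (a : F)))], h2]
  simp only [Nat.card_eq_fintype_card, Fintype.card_prod, Nat.cast_mul]
  split_ifs <;> field_simp <;> ring

theorem ps_irr {α β : MulChar F ℂ} (h : α ≠ β) : IsIrrCharacter G (ps α β) := by
  classical
  letI := Fintype.ofFinite G
  refine Char.isIrrCharacter_iff_classInner.2 ⟨ps_isCharacter α β, ?_⟩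
  rw [classInner_ps, if_pos ⟨rfl, rfl⟩, if_neg (fun e => h e.1), add_zero]

theorem ps_eq_iff {α β α' β' : MulChar F ℂ} :
    ps α β = ps α' β' ↔ (α = α' ∧ β = β') ∨ (α = β' ∧ β = α') := by
  classical
  letI := Fintype.ofFinite G
  constructor
  · intro h
    by_contra hc
    rw [not_or] at hc
    have h1 := classInner_ps α β α' β'
    rw [← h, classInner_ps, if_pos ⟨rfl, rfl⟩, if_neg hc.1, if_neg hc.2] at h1
    split_ifs at h1 <;> norm_num at h1
  · rintro (⟨rfl, rfl⟩ | ⟨rfl, rfl⟩)
    · rfl
    · rw [← sub_eq_zero]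
      apply eq_zero_of_classInner_self
      simp only [Char.classInner_sub_left, Char.classInner_sub_right, classInner_ps]
      by_cases h : α = β
      · subst h; simp
      · simp [h, Ne.symm h]

/-! ### The linear and the Steinberg characters -/

/-- The character `α ∘ det`. -/
noncomputable def linF (α : MulChar F ℂ) : G → ℂ := fun g => α (g : M2).det

/-- The homomorphism `α ∘ det`. -/
noncomputable def linHom (α : MulChar F ℂ) : G →* ℂˣ :=
  α.toUnitHom.comp Matrix.GeneralLinearGroup.det

theorem linF_eq (α : MulChar F ℂ) : linF α = fun g : G => (linHom α g : ℂ) := rfl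

theorem linF_irr (α : MulChar F ℂ) : IsIrrCharacter G (linF α) := by
  rw [linF_eq]; exact Char.isIrrCharacter_monoidHom _

theorem linF_norm (α : MulChar F ℂ) (g : G) : ‖linF α g‖ = 1 := by
  rw [linF_eq]
  refine Char.norm_eq_one_of_pow_orderOf_eq_one g ?_
  rw [← Units.val_pow_eq_pow_val, ← map_pow, pow_orderOf_eq_one, map_one, Units.val_one]

theorem linF_tri (α : MulChar F ℂ) (a d : Fˣ) (x : F) :
    linF α (Linear.triGL a d x) = α (a : F) * α (d : F) := by
  rw [linF, Linear.triGL_val, Matrix.det_fin_two_of, mul_zero, sub_zero, map_mul]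

theorem linF_injective : Function.Injective (linF (F := F)) := by
  intro α β h
  refine MulChar.ext fun a => ?_
  have := congrFun h (Linear.triGL a 1 0)
  rwa [linF_tri, linF_tri, Units.val_one, map_one, map_one, mul_one, mul_one] at this

open scoped Classical in
theorem classInner_ps_linF [hG : Fintype G] (α β γ : MulChar F ℂ) :
    classInner (ps α β) (linF γ) = if α = γ ∧ β = γ then 1 else 0 := by
  letI := Fintype.ofFinite (borel (F := F))
  rw [ps_eq α β, CharInd.classInner_indFun_left _ _ (Char.irr_isClassFunction (linF_irr γ)),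
    classInner_borel α β (linF γ)]
  simp only [linF_tri, Finset.sum_const, Finset.card_univ, nsmul_eq_mul, map_mul, map_natCast,
    mul_left_comm _ (q : ℂ), ← Finset.mul_sum]
  have h1 := sum_units_pair α β γ γ
  simp only [map_mul] at h1
  rw [h1]
  simp only [Nat.card_eq_fintype_card, Fintype.card_prod, Nat.cast_mul]
  split_ifs <;> field_simp <;> ring

/-- The Steinberg character twisted by `α ∘ det`. -/
noncomputable def stF (α : MulChar F ℂ) : G → ℂ := ps α α - linF α

open scoped Classical in
theorem classInner_stF [hG : Fintype G] (α β : MulChar F ℂ) :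
    classInner (stF α) (stF β) = if α = β then 1 else 0 := by
  have hconj : classInner (linF α) (ps β β) = if α = β then (1 : ℂ) else 0 := by
    rw [← Char.classInner_conj, classInner_ps_linF]
    split_ifs with h1 h2 h2 <;> simp_all
  have hlin : classInner (linF α) (linF β) = if α = β then (1 : ℂ) else 0 := by
    split_ifs with h
    · rw [h]; exact Char.classInner_irr_self (linF_irr β)
    · exact Char.classInner_irr_ne (linF_irr α) (linF_irr β) fun e => h (linF_injective e)
  simp only [stF, Char.classInner_sub_left, Char.classInner_sub_right, classInner_ps,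
    classInner_ps_linF, hconj, hlin, and_self]
  ring

end Cfsg.Agent.GL2Char
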