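import Cfsg.Agent.GL2Char.Principal
import Cfsg.Agent.SL2Char.Coeff

/-!
# The irreducible characters of `GL(2, q)` sorted by their multiplicities on `U`
-/

set_option autoImplicit false
set_option linter.unusedSectionVars false
set_option linter.style.haveILetI false

namespace Cfsg.Agent.GL2Char

open Cfsg
open Cfsg.Agent.CentralExt.SL2 (upper upperHom)
open scoped MatrixGroups ComplexConjugate

variable {F : Type*} [Field F] [Fintype F]

local notation "G" => GL (Fin 2) F
local notation "q" => Fintype.card F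
local notation "M2" => Matrix (Fin 2) (Fin 2) F

/-- The upper unitriangular subgroup, parametrised. -/
noncomputable def uHom : Multiplicative F →* G :=
  Matrix.SpecialLinearGroup.toGL.comp upperHom

/-- The element `!![1, x; 0, 1]`. -/
noncomputable def u (x : F) : G := uHom (Multiplicative.ofAdd x)

theorem coe_u (x : F) : ((u x : G) : M2) = !![1, x; 0, 1] := rfl

theorem u_zero : (u (0 : F) : G) = 1 := by
  rw [u, ofAdd_zero, map_one]

theorem apply_u {f : G → ℂ} (hf : IsClassFunction G f) {x : F} (hx : x ≠ 0) :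
    f (u x) = f (u 1) := by
  refine (Char.isClassFunction_eq_of_isConj hf ?_).symm
  refine isConj_iff.2 ⟨Linear.triGL (Units.mk0 x hx) 1 0, ?_⟩
  rw [mul_inv_eq_iff_eq_mul]
  apply Units.ext
  simp only [Units.val_mul, coe_u, Linear.triGL_val]
  ext i j
  fin_cases i <;> fin_cases j <;> simp [Matrix.mul_apply, Fin.sum_univ_two]

theorem sum_uHom {f : G → ℂ} (hf : IsClassFunction G f) (ψ : F → ℂ) :
    ∑ y : Multiplicative F, f (uHom y) * ψ y.toAdd =
      (f 1 - f (u 1)) * ψ 0 + f (u 1) * ∑ x : F, ψ x := by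
  classical
  have h : ∀ x : F, f (u x) * ψ x = (if x = 0 then (f 1 - f (u 1)) * ψ 0 else 0) + f (u 1) * ψ x := by
    intro x
    split_ifs with hx
    · subst hx; rw [u_zero]; ring
    · rw [apply_u hf hx, zero_add]
  rw [Fintype.sum_equiv Multiplicative.toAdd (fun y => f (uHom y) * ψ y.toAdd)
    (fun x => f (u x) * ψ x) (fun y => rfl)]
  simp only [h, Finset.sum_add_distrib, Finset.sum_ite_eq', Finset.mem_univ, if_true, Finset.mul_sum]

theorem exists_m0 (χ : IrrCharacter G) :
    ∃ n : ℕ, (χ : G → ℂ) 1 + ((q : ℂ) - 1) * (χ : G → ℂ) (u 1) = (q : ℂ) * n := by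
  classical
  obtain ⟨n, hn⟩ := Char.isCharacter_classInner_nat
    (Char.isCharacter_comp (Char.isCharacter_of_irr χ.2) uHom)
    (Char.trivialIrr (Multiplicative F))
  refine ⟨n, ?_⟩
  have h := sum_uHom (Char.irr_isClassFunction χ.2) (fun _ => 1)
  simp only [mul_one, Finset.sum_const, Finset.card_univ, nsmul_eq_mul] at h
  rw [← hn, classInner, Nat.card_eq_fintype_card, Fintype.card_multiplicative]
  have hq : (q : ℂ) ≠ 0 := by simp
  simp only [Char.trivialIrr, map_one, mul_one, Function.comp_apply]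
  rw [h]
  field_simp
  ring

theorem exists_m1 (χ : IrrCharacter G) :
    ∃ n : ℕ, (χ : G → ℂ) 1 - (χ : G → ℂ) (u 1) = (q : ℂ) * n := by
  classical
  let l : Multiplicative F →* ℂˣ := (AddChar.toMonoidHom (SL2Char.psi F)).toHomUnits
  obtain ⟨n, hn⟩ := Char.isCharacter_classInner_nat
    (Char.isCharacter_comp (Char.isCharacter_of_irr χ.2) uHom)
    ⟨fun g => (l g : ℂ), Char.isIrrCharacter_monoidHom l⟩
  refine ⟨n, ?_⟩
  have h := sum_uHom (Char.irr_isClassFunction χ.2) (fun x => SL2Char.psi F (-x))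
  have hz : ∑ x : F, SL2Char.psi F (-x) = 0 := by
    have e := SL2Char.sum_psi (F := F) (-1 : F)
    simp only [neg_one_mul, neg_eq_zero, one_ne_zero, if_false] at e
    exact e
  rw [hz, mul_zero, add_zero, neg_zero, AddChar.map_zero_eq_one, mul_one] at h
  rw [← hn, classInner, Nat.card_eq_fintype_card, Fintype.card_multiplicative]
  have hq : (q : ℂ) ≠ 0 := by simp
  have hl : ∀ y : Multiplicative F, conj (l y : ℂ) = SL2Char.psi F (-y.toAdd) := fun y => by
    rw [← SL2Char.conj_psi]; rfl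
  simp only [hl, Function.comp_apply]
  rw [h]
  field_simp

/-- The multiplicity of the trivial character of `U`. -/
noncomputable def m0 (χ : IrrCharacter G) : ℕ := (exists_m0 χ).choose

/-- The multiplicity of a non-trivial character of `U`. -/
noncomputable def m1 (χ : IrrCharacter G) : ℕ := (exists_m1 χ).choose

theorem one_eq (χ : IrrCharacter G) :
    (χ : G → ℂ) 1 = (m0 χ : ℂ) + ((q : ℂ) - 1) * m1 χ := by
  have hq : (q : ℂ) ≠ 0 := by simp
  have s0 : _ = (q : ℂ) * m0 χ := (exists_m0 χ).choose_spec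
  have s1 : _ = (q : ℂ) * m1 χ := (exists_m1 χ).choose_spec
  refine mul_left_cancel₀ hq ?_
  linear_combination s0 + ((q : ℂ) - 1) * s1

theorem u_eq (χ : IrrCharacter G) : (χ : G → ℂ) (u 1) = (m0 χ : ℂ) - m1 χ := by
  have hq : (q : ℂ) ≠ 0 := by simp
  have s0 : _ = (q : ℂ) * m0 χ := (exists_m0 χ).choose_spec
  have s1 : _ = (q : ℂ) * m1 χ := (exists_m1 χ).choose_spec
  refine mul_left_cancel₀ hq ?_
  linear_combination s0 - s1

theorem m_eq {χ : IrrCharacter G} {a b : ℕ} (h1 : (χ : G → ℂ) 1 = (a : ℂ) + ((q : ℂ) - 1) * b)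
    (hu : (χ : G → ℂ) (u 1) = (a : ℂ) - b) : m0 χ = a ∧ m1 χ = b := by
  rw [one_eq] at h1
  rw [u_eq] at hu
  have hq : (q : ℂ) ≠ 0 := by simp
  have hb : (m1 χ : ℂ) = b := mul_left_cancel₀ hq (by linear_combination h1 - hu)
  have ha : (m0 χ : ℂ) = a := by linear_combination hu + hb
  exact ⟨by exact_mod_cast ha, by exact_mod_cast hb⟩

theorem card_centralizer_u :
    Nat.card (Subgroup.centralizer ({u (1 : F)} : Set G)) = (q - 1) * q := by
  have hu : u (1 : F) ∈ Linear.upperGL := by simp [Linear.mem_upperGL, coe_u]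
  have h1 : u (1 : F) ≠ 1 := fun h => by
    have := congrArg (fun g : G => (g : M2) 0 1) h
    simp [coe_u] at this
  rw [Nat.card_congr (Linear.centralizerUpperGLEquiv hu h1), Nat.card_prod, Nat.card_units,
    Nat.card_eq_fintype_card]

open scoped Classical in
/-- The three column sums. -/
theorem sums :
    ∑ χ : IrrCharacter G, m0 χ * m0 χ = 2 * ((q - 1) * (q - 1)) ∧
    ∑ χ : IrrCharacter G, m1 χ * m1 χ = q * (q - 1) := by
  letI := Fintype.ofFinite G
  have e1 : ∑ χ : IrrCharacter G, ((m0 χ : ℂ) + ((q : ℂ) - 1) * m1 χ) ^ 2 = (Nat.card G : ℂ) := by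
    rw [← Char.sum_irr_degree_sq]
    exact Finset.sum_congr rfl fun χ _ => by rw [one_eq]
  have e2 : ∑ χ : IrrCharacter G, ((m0 χ : ℂ) + ((q : ℂ) - 1) * m1 χ) * ((m0 χ : ℂ) - m1 χ) = 0 := by
    have h := Char.sum_irr_degree_mul (u (1 : F))
    rw [if_neg (fun h => by
      have := congrArg (fun g : G => (g : M2) 0 1) h
      simp [coe_u] at this)] at h
    rw [← h]
    exact Finset.sum_congr rfl fun χ _ => by rw [one_eq, u_eq]
  have e3 : ∑ χ : IrrCharacter G, ((m0 χ : ℂ) - m1 χ) ^ 2 = (((q - 1) * q : ℕ) : ℂ) := by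
    have h := Char.sum_irr_mul_conj (u (1 : F)) (u 1)
    rw [if_pos (IsConj.refl _), card_centralizer_u] at h
    rw [← h]
    exact Finset.sum_congr rfl fun χ _ => by rw [u_eq, map_sub, map_natCast, map_natCast, sq]
  have hG : (Nat.card G : ℂ) = (q : ℂ) * ((q : ℂ) - 1) ^ 2 * ((q : ℂ) + 1) := by
    rw [Linear.card_GL_two, Nat.cast_mul, Nat.cast_mul, Nat.cast_pow, Nat.cast_sub Fintype.card_pos]
    push_cast; ring
  have hq : (q : ℂ) ^ 2 ≠ 0 := by simp
  have h1 : (1 : ℕ) ≤ q := Fintype.card_pos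
  rw [hG] at e1
  rw [Nat.cast_mul, Nat.cast_sub h1, Nat.cast_one] at e3
  rw [Finset.sum_congr rfl (g := fun χ => (m0 χ : ℂ) * m0 χ +
      2 * ((q : ℂ) - 1) * ((m0 χ : ℂ) * m1 χ) + ((q : ℂ) - 1) ^ 2 * ((m1 χ : ℂ) * m1 χ))
      (fun χ _ => by ring)] at e1
  rw [Finset.sum_congr rfl (g := fun χ => (m0 χ : ℂ) * m0 χ +
      ((q : ℂ) - 2) * ((m0 χ : ℂ) * m1 χ) + (-((q : ℂ) - 1)) * ((m1 χ : ℂ) * m1 χ))
      (fun χ _ => by ring)] at e2
  rw [Finset.sum_congr rfl (g := fun χ => (m0 χ : ℂ) * m0 χ +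
      (-2) * ((m0 χ : ℂ) * m1 χ) + (m1 χ : ℂ) * m1 χ) (fun χ _ => by ring)] at e3
  simp only [Finset.sum_add_distrib, ← Finset.mul_sum] at e1 e2 e3
  constructor
  · apply Nat.cast_injective (R := ℂ)
    push_cast [Nat.cast_sub h1]
    refine mul_left_cancel₀ hq ?_
    linear_combination e1 + 2 * ((q : ℂ) - 1) * e2 + ((q : ℂ) - 1) ^ 2 * e3
  · apply Nat.cast_injective (R := ℂ)
    push_cast [Nat.cast_sub h1]
    refine mul_left_cancel₀ hq ?_
    linear_combination e1 - 2 * e2 + e3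

/-- At least `q² - 1` conjugacy classes. -/
theorem card_classes : (q - 1) + q * (q - 1) ≤ Nat.card (ConjClasses G) := by
  classical
  let f : Fˣ ⊕ F × Fˣ → ConjClasses G := Sum.elim
    (fun c => ConjClasses.mk (Linear.triGL c c 0))
    (fun p => ConjClasses.mk (Matrix.GeneralLinearGroup.mkOfDetNeZero
      (Linear.Classes.companion p.1 (p.2 : F)) (by rw [Linear.Classes.det_companion]; exact p.2.ne_zero)))
  have hcentral : ∀ (c : Fˣ) (y g : G), g * Linear.triGL c c 0 * g⁻¹ = y →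
      y = Linear.triGL c c 0 := by
    intro c y g h
    rw [← h, mul_inv_eq_iff_eq_mul]
    apply Units.ext
    simp only [Units.val_mul, Linear.triGL_val]
    ext i j
    fin_cases i <;> fin_cases j <;> simp [Matrix.mul_apply, Fin.sum_univ_two, mul_comm]
  have hf : Function.Injective f := by
    rintro (c | ⟨t, d⟩) (c' | ⟨t', d'⟩) h <;> simp only [f, Sum.elim_inl, Sum.elim_inr,
      ConjClasses.mk_eq_mk_iff_isConj] at h
    · obtain ⟨g, hg⟩ := isConj_iff.1 h
      have := congrArg (fun g : G => (g : M2) 0 0) (hcentral c _ g hg)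
      simp at this
      exact congrArg Sum.inl (Units.ext this.symm)
    · obtain ⟨g, hg⟩ := isConj_iff.1 h
      have := congrArg (fun g : G => (g : M2) 1 0) (hcentral c _ g hg)
      simp [Linear.Classes.companion] at this
    · obtain ⟨g, hg⟩ := isConj_iff.1 h.symm
      have := congrArg (fun g : G => (g : M2) 1 0) (hcentral c' _ g hg)
      simp [Linear.Classes.companion] at this
    · have hns : ∀ (a b : F), Linear.Classes.Nonscalar (Linear.Classes.companion a b) :=
        Linear.Classes.companion_nonscalar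
      obtain ⟨ht, hd⟩ := (Linear.Classes.isConj_GL_iff (by simpa using hns t d) (by simpa using hns t' d')).1 h
      simp [Linear.Classes.trace_companion, Linear.Classes.det_companion, Units.ext_iff] at ht hd
      exact congrArg Sum.inr (Prod.ext ht (Units.ext hd))
  have h := Nat.card_le_card_of_injective f hf
  rwa [Nat.card_sum, Nat.card_prod, Nat.card_units, Nat.card_eq_fintype_card] at h

/-! ### The known families -/

/-- The linear characters. -/
noncomputable def linI (α : MulChar F ℂ) : IrrCharacter G := ⟨linF α, linF_irr α⟩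

theorem stF_apply_one (α : MulChar F ℂ) : stF α (1 : G) = (q : ℂ) := by
  classical
  letI := Fintype.ofFinite G
  have h : linF α (1 : G) = 1 := by simp [linF]
  rw [stF, Pi.sub_apply, h, ps_eq, indFun_eq]
  simp

theorem ps_one (α β : MulChar F ℂ) : ps α β (1 : G) = (q : ℂ) + 1 := by
  classical
  letI := Fintype.ofFinite G
  rw [ps_eq, indFun_eq]
  simp [add_comm]

theorem ps_u (α β : MulChar F ℂ) : ps α β (u 1 : G) = 1 := by
  classical
  letI := Fintype.ofFinite G
  rw [ps_eq, indFun_eq, coe_u]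
  simp

theorem stF_irr (α : MulChar F ℂ) : IsIrrCharacter G (stF α) := by
  classical
  letI := Fintype.ofFinite G
  have hgen : IsGeneralizedCharacter G (stF α) :=
    Char.isGeneralizedCharacter_sub
      (Char.isGeneralizedCharacter_of_isCharacter (ps_isCharacter α α))
      (Char.isGeneralizedCharacter_of_irr (linF_irr α))
  rcases Char.generalized_norm_one hgen (by rw [classInner_stF, if_pos rfl]) with h | h
  · exact h
  · exfalso
    obtain ⟨n, hn, hn'⟩ := Char.irr_one_pos h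
    rw [Pi.neg_apply, stF_apply_one] at hn'
    have h2 : ((n + q : ℕ) : ℂ) = 0 := by push_cast; rw [← hn']; ring
    have h3 := Nat.cast_eq_zero.1 h2
    omega

/-- The twisted Steinberg characters. -/
noncomputable def stI (α : MulChar F ℂ) : IrrCharacter G := ⟨stF α, stF_irr α⟩

open scoped Classical in
/-- The principal series. -/
noncomputable def psI (p : MulChar F ℂ × MulChar F ℂ) : IrrCharacter G :=
  if h : p.1 ≠ p.2 then ⟨ps p.1 p.2, ps_irr h⟩ else linI p.1

theorem psI_val {p : MulChar F ℂ × MulChar F ℂ} (h : p.1 ≠ p.2) :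
    (psI p : G → ℂ) = ps p.1 p.2 := by
  simp only [psI, dif_pos h]

theorem m_linI (α : MulChar F ℂ) : m0 (linI α) = 1 ∧ m1 (linI α) = 0 := by
  refine m_eq ?_ ?_
  · simp [linI, linF]
  · simp [linI, linF, coe_u, Matrix.det_fin_two_of]

theorem m_stI (α : MulChar F ℂ) : m0 (stI α) = 1 ∧ m1 (stI α) = 1 := by
  refine m_eq ?_ ?_
  · show stF α 1 = _
    rw [stF_apply_one]; push_cast; ring
  · show stF α (u 1) = _
    rw [stF, Pi.sub_apply, ps_u]; simp [linF, coe_u, Matrix.det_fin_two_of]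

theorem m_psI {p : MulChar F ℂ × MulChar F ℂ} (h : p.1 ≠ p.2) :
    m0 (psI p) = 2 ∧ m1 (psI p) = 1 := by
  refine m_eq ?_ ?_
  · rw [psI_val h, ps_one]; push_cast; ring
  · rw [psI_val h, ps_u]; norm_num

open scoped Classical in
/-- Every irreducible character is linear, a twisted Steinberg character, in the principal series or has
multiplicities `0` and `1`; the numbers of each. -/
theorem classification :
    ∃ L S P R : Finset (IrrCharacter G),
      L.card = q - 1 ∧ S.card = q - 1 ∧ 2 * P.card = (q - 1) * (q - 2) ∧ 2 * R.card = q * (q - 1) ∧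
      (∀ χ ∈ L, ∃ α, χ = linI α) ∧ (∀ χ ∈ S, ∃ α, χ = stI α) ∧
      (∀ χ ∈ P, ∃ p : MulChar F ℂ × MulChar F ℂ, p.1 ≠ p.2 ∧ χ = psI p) ∧
      (∀ χ ∈ R, m0 χ = 0 ∧ m1 χ = 1) ∧ (∀ χ, χ ∈ L ∨ χ ∈ S ∨ χ ∈ P ∨ χ ∈ R) := by
  letI := Fintype.ofFinite G
  letI := Fintype.ofFinite (MulChar F ℂ)
  have hM : (Finset.univ : Finset (MulChar F ℂ)).card = q - 1 := by
    rw [Finset.card_univ, ← Nat.card_eq_fintype_card,
      MulChar.card_eq_card_units_of_hasEnoughRootsOfUnity, Nat.card_units, Nat.card_eq_fintype_card]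
  set L := Finset.univ.image (linI (F := F))
  set S := Finset.univ.image (stI (F := F))
  set A := (Finset.univ : Finset (MulChar F ℂ)).offDiag
  set P := A.image (psI (F := F))
  have hA : ∀ {p : MulChar F ℂ × MulChar F ℂ}, p ∈ A → p.1 ≠ p.2 := fun hp =>
    (Finset.mem_offDiag.1 hp).2.2
  have hL : L.card = q - 1 := by
    rw [Finset.card_image_of_injective _ fun a b h => linF_injective (congrArg Subtype.val h), hM]
  have hS : S.card = q - 1 := by
    rw [Finset.card_image_of_injective _ fun a b h => ?_, hM]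
    by_contra hne
    have h1 := classInner_stF a b
    rw [show stF a = stF b from congrArg Subtype.val h, classInner_stF, if_pos rfl, if_neg hne] at h1
    exact one_ne_zero h1
  have hP : 2 * P.card = (q - 1) * (q - 2) := by
    have hfib : ∀ χ ∈ P, (A.filter fun p => psI p = χ).card = 2 := by
      intro χ hχ
      obtain ⟨⟨a, b⟩, hp, rfl⟩ := Finset.mem_image.1 hχ
      have hab : a ≠ b := hA hp
      rw [show (A.filter fun p => psI p = psI (a, b)) = {(a, b), (b, a)} from ?_,
        Finset.card_pair (by simp [hab])]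
      ext ⟨c, d⟩
      simp only [Finset.mem_filter, Finset.mem_insert, Finset.mem_singleton, Prod.mk.injEq]
      constructor
      · rintro ⟨hcd, h⟩
        have h' : ps c d = ps a b := by
          rw [← psI_val (p := (c, d)) (hA hcd), h, psI_val (p := (a, b)) hab]
        exact ps_eq_iff.1 h'
      · intro h
        have hcd : c ≠ d := by rcases h with ⟨rfl, rfl⟩ | ⟨rfl, rfl⟩ <;> [exact hab; exact hab.symm]
        refine ⟨by simp [A, hcd], Subtype.ext ?_⟩
        rw [psI_val (p := (c, d)) hcd, psI_val (p := (a, b)) hab]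
        exact ps_eq_iff.2 h
    have h := Finset.card_eq_sum_card_fiberwise (f := psI) (s := A) (t := P)
      fun p hp => Finset.mem_image_of_mem _ hp
    rw [Finset.sum_congr rfl hfib, Finset.sum_const, smul_eq_mul, Finset.offDiag_card, hM] at h
    obtain ⟨k, hk⟩ : ∃ k, q = k + 2 := ⟨q - 2, by have := Fintype.one_lt_card (α := F); omega⟩
    rw [hk] at h ⊢
    simp only [show k + 2 - 1 = k + 1 by omega, Nat.add_sub_cancel] at h ⊢
    rw [show (k + 1) * (k + 1) - (k + 1) = (k + 1) * k by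
      rw [show (k + 1) * (k + 1) = (k + 1) * k + (k + 1) by ring]; omega] at h
    omega
  have kL : ∀ χ ∈ L, m0 χ = 1 ∧ m1 χ = 0 := by
    intro χ hχ; obtain ⟨α, -, rfl⟩ := Finset.mem_image.1 hχ; exact m_linI α
  have kS : ∀ χ ∈ S, m0 χ = 1 ∧ m1 χ = 1 := by
    intro χ hχ; obtain ⟨α, -, rfl⟩ := Finset.mem_image.1 hχ; exact m_stI α
  have kP : ∀ χ ∈ P, m0 χ = 2 ∧ m1 χ = 1 := by
    intro χ hχ; obtain ⟨p, hp, rfl⟩ := Finset.mem_image.1 hχ; exact m_psI (hA hp)
  have d1 : Disjoint L S := Finset.disjoint_left.2 fun χ h h' => by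
    have := kL χ h; have := kS χ h'; omega
  have d2 : Disjoint (L ∪ S) P := Finset.disjoint_left.2 fun χ h h' => by
    have := kP χ h'
    rcases Finset.mem_union.1 h with h | h
    · have := kL χ h; omega
    · have := kS χ h; omega
  set R := (L ∪ S ∪ P)ᶜ
  have hsplit : ∀ f : IrrCharacter G → ℕ, ∑ χ, f χ =
      ∑ χ ∈ L, f χ + ∑ χ ∈ S, f χ + ∑ χ ∈ P, f χ + ∑ χ ∈ R, f χ := fun f => by
    rw [← Finset.sum_add_sum_compl (L ∪ S ∪ P), Finset.sum_union d2, Finset.sum_union d1]
  obtain ⟨s0, s1⟩ := sums (F := F)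
  rw [hsplit, Finset.sum_congr rfl (g := fun _ => 1) fun χ h => by rw [(kL χ h).1],
    Finset.sum_congr rfl (g := fun _ => 1) (s₁ := S) fun χ h => by rw [(kS χ h).1],
    Finset.sum_congr rfl (g := fun _ => 4) (s₁ := P) fun χ h => by rw [(kP χ h).1]] at s0
  rw [hsplit, Finset.sum_congr rfl (g := fun _ => 0) fun χ h => by rw [(kL χ h).2],
    Finset.sum_congr rfl (g := fun _ => 1) (s₁ := S) fun χ h => by rw [(kS χ h).2],
    Finset.sum_congr rfl (g := fun _ => 1) (s₁ := P) fun χ h => by rw [(kP χ h).2]] at s1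
  simp only [Finset.sum_const, smul_eq_mul, mul_one, mul_zero, zero_add, hL, hS] at s0 s1
  have hN : L.card + S.card + P.card + R.card = Nat.card (ConjClasses G) := by
    rw [← Char.card_irr_eq_card_conjClasses, Nat.card_eq_fintype_card, ← Finset.card_univ]
    have := hsplit fun _ => 1
    simp only [Finset.sum_const, smul_eq_mul, mul_one] at this
    exact this.symm
  have hC := card_classes (F := F)
  have hq : 2 ≤ q := Fintype.one_lt_card
  obtain ⟨k, hk⟩ : ∃ k, q = k + 2 := ⟨q - 2, by omega⟩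
  rw [hk] at hP s0 s1 hL hS hC ⊢
  simp only [show k + 2 - 1 = k + 1 by omega, Nat.add_sub_cancel] at hP s0 s1 hL hS hC ⊢
  have z0 : ∑ χ ∈ R, m0 χ * m0 χ = 0 := by
    obtain ⟨X, hX⟩ : ∃ X, ∑ χ ∈ R, m0 χ * m0 χ = X := ⟨_, rfl⟩
    rw [hX] at s0 ⊢
    nlinarith
  have kR : ∀ χ ∈ R, m0 χ = 0 := fun χ hχ => mul_self_eq_zero.1 (Finset.sum_eq_zero_iff.1 z0 χ hχ)
  have hpos : ∀ χ ∈ R, 1 ≤ m1 χ * m1 χ := by
    intro χ hχ
    rcases Nat.eq_zero_or_pos (m1 χ) with h | h
    · exfalso
      have := one_eq χ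
      rw [kR χ hχ, h, Nat.cast_zero, mul_zero, add_zero] at this
      exact Char.irr_one_ne_zero χ.2 this
    · exact Nat.mul_pos h h
  have hR : ∑ χ ∈ R, m1 χ * m1 χ = R.card ∧ 2 * R.card = (k + 2) * (k + 1) := by
    have h := Finset.card_nsmul_le_sum R _ 1 hpos
    rw [smul_eq_mul, mul_one] at h
    obtain ⟨X, hX⟩ : ∃ X, ∑ χ ∈ R, m1 χ * m1 χ = X := ⟨_, rfl⟩
    rw [hX] at s1 h ⊢
    constructor <;> nlinarith
  have heq := (Finset.sum_eq_sum_iff_of_le hpos).1 (by
    rw [Finset.sum_const, smul_eq_mul, mul_one]; exact hR.1.symm)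
  refine ⟨L, S, P, R, hL, hS, hP, hR.2, fun χ hχ => ?_, fun χ hχ => ?_, fun χ hχ => ?_,
    fun χ hχ => ⟨kR χ hχ, (mul_eq_one.1 (heq χ hχ).symm).1⟩, fun χ => ?_⟩
  · obtain ⟨α, -, rfl⟩ := Finset.mem_image.1 hχ; exact ⟨α, rfl⟩
  · obtain ⟨α, -, rfl⟩ := Finset.mem_image.1 hχ; exact ⟨α, rfl⟩
  · obtain ⟨p, hp, rfl⟩ := Finset.mem_image.1 hχ; exact ⟨p, hA hp, rfl⟩
  · by_cases h : χ ∈ L ∪ S ∪ P
    · rw [Finset.mem_union, Finset.mem_union, or_assoc] at h
      rcases h with h | h | h <;> simp [h]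
    · exact Or.inr (Or.inr (Or.inr (Finset.mem_compl.2 h)))

end Cfsg.Agent.GL2Char
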