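import Cfsg.Agent.GL2Char.Table

/-!
# Degrees and values of the irreducible characters of `GL(2, q)`
-/

set_option autoImplicit false
set_option linter.unusedSectionVars false
set_option linter.style.haveILetI false

namespace Cfsg.Agent.GL2Char

open Cfsg
open scoped MatrixGroups ComplexConjugate

variable {F : Type*} [Field F] [Fintype F]

local notation "G" => GL (Fin 2) F
local notation "q" => Fintype.card F
local notation "M2" => Matrix (Fin 2) (Fin 2) F

theorem degree_eq (χ : IrrCharacter G) :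
    charDegree (χ : G → ℂ) = m0 χ + (q - 1) * m1 χ := by
  refine Char.charDegree_of_eq ?_
  rw [one_eq, Nat.cast_add, Nat.cast_mul, Nat.cast_sub Fintype.card_pos, Nat.cast_one]

/-- The four kinds of irreducible characters. -/
theorem kinds (χ : IrrCharacter G) :
    (∃ α, χ = linI α) ∧ charDegree (χ : G → ℂ) = 1 ∨
    (∃ α, χ = stI α) ∧ charDegree (χ : G → ℂ) = q ∨
    (∃ p : MulChar F ℂ × MulChar F ℂ, p.1 ≠ p.2 ∧ χ = psI p) ∧ charDegree (χ : G → ℂ) = q + 1 ∨
    (m0 χ = 0 ∧ m1 χ = 1) ∧ charDegree (χ : G → ℂ) = q - 1 := by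
  classical
  obtain ⟨L, S, P, R, -, -, -, -, kL, kS, kP, kR, hall⟩ := classification (F := F)
  have hq : 2 ≤ q := Fintype.one_lt_card
  rcases hall χ with h | h | h | h
  · obtain ⟨α, rfl⟩ := kL χ h
    exact Or.inl ⟨⟨α, rfl⟩, by rw [degree_eq, (m_linI α).1, (m_linI α).2]; omega⟩
  · obtain ⟨α, rfl⟩ := kS χ h
    exact Or.inr (Or.inl ⟨⟨α, rfl⟩, by rw [degree_eq, (m_stI α).1, (m_stI α).2]; omega⟩)
  · obtain ⟨p, hp, rfl⟩ := kP χ h
    exact Or.inr (Or.inr (Or.inl ⟨⟨p, hp, rfl⟩, by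
      rw [degree_eq, (m_psI hp).1, (m_psI hp).2]; omega⟩))
  · exact Or.inr (Or.inr (Or.inr ⟨kR χ h, by rw [degree_eq, (kR χ h).1, (kR χ h).2]; omega⟩))

theorem exists_stI_of_degree {χ : IrrCharacter G} (h : (χ : G → ℂ) 1 = (q : ℂ)) :
    ∃ α, χ = stI α := by
  have hd := Char.charDegree_of_eq h
  have hq : 2 ≤ q := Fintype.one_lt_card
  rcases kinds χ with ⟨-, e⟩ | ⟨e, -⟩ | ⟨-, e⟩ | ⟨-, e⟩
  all_goals first | exact e | omega

theorem exists_psI_of_degree {χ : IrrCharacter G} (h : (χ : G → ℂ) 1 = (q : ℂ) + 1) :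
    ∃ p : MulChar F ℂ × MulChar F ℂ, p.1 ≠ p.2 ∧ χ = psI p := by
  have hd := Char.charDegree_of_eq (d := q + 1) (χ := (χ : G → ℂ)) (by rw [h]; push_cast; rfl)
  have hq : 2 ≤ q := Fintype.one_lt_card
  rcases kinds χ with ⟨-, e⟩ | ⟨-, e⟩ | ⟨e, -⟩ | ⟨-, e⟩
  all_goals first | exact e | omega

theorem mult_of_degree_sub {χ : IrrCharacter G} (hq3 : 3 ≤ q)
    (h : (χ : G → ℂ) 1 = (q : ℂ) - 1) : m0 χ = 0 ∧ m1 χ = 1 := by
  have hd := Char.charDegree_of_eq (d := q - 1) (χ := (χ : G → ℂ))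
    (by rw [h, Nat.cast_sub Fintype.card_pos, Nat.cast_one])
  rcases kinds χ with ⟨-, e⟩ | ⟨-, e⟩ | ⟨-, e⟩ | ⟨e, -⟩
  all_goals first | exact e | omega

theorem ps_elliptic (α β : MulChar F ℂ) {g : G}
    (h : ∀ (c : F) (v : Fin 2 → F), v ≠ 0 → (g : M2).mulVec v ≠ c • v) : ps α β g = 0 := by
  classical
  letI := Fintype.ofFinite G
  obtain ⟨h10, hq, -⟩ := elliptic_entries h
  rw [ps_eq, indFun_eq, if_neg h10, zero_add]
  exact Finset.sum_eq_zero fun c _ => if_neg (hq c)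

theorem ps_diag (α β : MulChar F ℂ) {g : G} (h01 : (g : M2) 0 1 = 0) (h10 : (g : M2) 1 0 = 0)
    (hne : (g : M2) 0 0 ≠ (g : M2) 1 1) :
    ps α β g = α ((g : M2) 0 0) * β ((g : M2) 1 1) + α ((g : M2) 1 1) * β ((g : M2) 0 0) := by
  classical
  letI := Fintype.ofFinite G
  rw [ps_eq, indFun_eq, h10, h01, if_pos rfl]
  simp only [zero_mul, zero_add, sub_zero, mul_zero, mul_eq_zero, sub_eq_zero, Ne.symm hne,
    false_or]
  rw [Finset.sum_ite_eq', if_pos (Finset.mem_univ _)]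

/-- A character with no fixed points on `U` vanishes at the split regular elements. -/
theorem diag_eq_zero {χ : IrrCharacter G} (h0 : m0 χ = 0) {g : G} (h01 : (g : M2) 0 1 = 0)
    (h10 : (g : M2) 1 0 = 0) (hne : (g : M2) 0 0 ≠ (g : M2) 1 1) : (χ : G → ℂ) g = 0 := by
  classical
  have hsum : ∑ y : Multiplicative F, (χ : G → ℂ) (uHom y) = 0 := by
    have h := sum_uHom (Char.irr_isClassFunction χ.2) (fun _ => 1)
    simp only [mul_one, Finset.sum_const, Finset.card_univ, nsmul_eq_mul] at h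
    rw [h, one_eq, u_eq, h0]
    push_cast
    ring
  have hs := sum_shift_eq_zero (Char.isCharacter_of_irr χ.2) _ hsum g
  rw [Finset.sum_congr rfl (g := fun _ => (χ : G → ℂ) g) fun x _ => ?_, Finset.sum_const,
    nsmul_eq_mul, mul_eq_zero] at hs
  · exact hs.resolve_left (by simp)
  · refine Char.isClassFunction_eq_of_isConj (Char.irr_isClassFunction χ.2) ?_
    have hg : Linear.Classes.Nonscalar (g : M2) := fun c e => hne (by rw [e]; simp)
    have hx : ((g * uHom x : G) : M2) = (g : M2) * !![1, x.toAdd; 0, 1] := rfl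
    have hg' : Linear.Classes.Nonscalar ((g * uHom x : G) : M2) := fun c e => hne (by
      have e0 := congrFun (congrFun e 0) 0
      have e1 := congrFun (congrFun e 1) 1
      rw [hx] at e0 e1
      simp [Matrix.mul_apply, Fin.sum_univ_two, h10] at e0 e1
      rw [e0, e1])
    refine (Linear.Classes.isConj_GL_iff hg' hg).2 ⟨?_, ?_⟩
    · rw [hx]; simp [Matrix.trace_fin_two, Matrix.mul_apply, Fin.sum_univ_two, h10]
    · rw [hx, Matrix.det_mul, Matrix.det_fin_two_of]; simp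

theorem norm_stF_diag (α : MulChar F ℂ) {g : G} (h01 : (g : M2) 0 1 = 0) (h10 : (g : M2) 1 0 = 0)
    (hne : (g : M2) 0 0 ≠ (g : M2) 1 1) : ‖stF α g‖ = 1 := by
  have h : ps α α g = 2 * linF α g := by
    rw [ps_diag α α h01 h10 hne, linF, Matrix.det_fin_two, h01, zero_mul, sub_zero, map_mul]
    ring
  rw [stF, Pi.sub_apply, h, two_mul, add_sub_cancel_right, linF_norm]

theorem norm_stF_elliptic (α : MulChar F ℂ) {g : G}
    (h : ∀ (c : F) (v : Fin 2 → F), v ≠ 0 → (g : M2).mulVec v ≠ c • v) : ‖stF α g‖ = 1 := by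
  rw [stF, Pi.sub_apply, ps_elliptic α α h, zero_sub, norm_neg, linF_norm]

end Cfsg.Agent.GL2Char
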